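import Cfsg.Agent.H959.T5.Tools
import Cfsg.Agent.H846.NoESmall

/-!
# S3854: the groups `HS` and `McL` (helper846)

* `noTE_two_primes` : no solvable subgroup contains elements of orders `p` and `r`, and there is a proper subgroup of
  order divisible by `r` and index prime to `p`;
* `noTE_hs`, `noTE_mcl`.
-/

set_option autoImplicit false

namespace Cfsg.Agent.H846.NoTESmall

open Cfsg Subgroup Cfsg.Agent.H301.SY Cfsg.Agent.H459.Rad Cfsg.Agent.H959.T5 Cfsg.Agent.H846.NoESmall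

section

variable {K : Type*} [Group K] [Finite K] {p : ℕ} [hp : Fact p.Prime]

/-- **Two primes.** -/
theorem noTE_two_primes {r : ℕ} (hr : r.Prime)
    (hno : ∀ x y : K, orderOf x = p → orderOf y = r → ¬ Group.IsSolvable ↥(closure ({x, y} : Set K)))
    {H : Subgroup K} (hH : H ≠ ⊤) (hd : r ∣ Nat.card H) (hi : ¬ p ∣ H.index) : NoTE p K := by
  intro a ha hR _
  have : Fact r.Prime := ⟨hr⟩
  obtain ⟨g, hg⟩ := Cfsg.Agent.H177.AATools.conj_mem_of_index hi ha
  have hR' : RE (g * a * g⁻¹) := RE.map (MulAut.conj g) hR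
  have h1 : g * a * g⁻¹ ∈ radIn H := hR' H hH hg
  obtain ⟨y, hy⟩ := exists_prime_orderOf_dvd_card' r hd
  refine hno (g * a * g⁻¹) (y : K) (Cfsg.Agent.H177.AATools.order_conj ha g) (by rw [Subgroup.orderOf_coe, hy]) ?_
  have h2 := isSolvable_pair (radIn_solvable H) (s := (y : K)) (fun c hc => radIn_conj_mem y.2 hc) h1
  rwa [Set.pair_comm] at h2

/-- the arithmetic form -/
theorem noTE_arith {r : ℕ} (hr : r.Prime) (hcomm : ∀ x y : K, orderOf x = p → orderOf y = r → x * y ≠ y * x) (k l : ℕ)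
    (hk : ¬ p ^ (k + 1) ∣ Nat.card K) (hk' : ∀ i ∈ List.range (k + 1), 0 < i → ¬ r ∣ p ^ i - 1)
    (hl : ¬ r ^ (l + 1) ∣ Nat.card K) (hl' : ∀ i ∈ List.range (l + 1), 0 < i → ¬ p ∣ r ^ i - 1)
    {H : Subgroup K} (hH : H ≠ ⊤) (hd : r ∣ Nat.card H) (hi : ¬ p ∣ H.index) : NoTE p K :=
  noTE_two_primes hr (Cfsg.Agent.H177.AATools.no_solvable hr hcomm k l hk hk' hl hl') hH hd hi

omit [Finite K] hp in
/-- no elements of order `p` -/
theorem noTE_of_not_dvd (h : ¬ p ∣ Nat.card K) : NoTE p K := by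
  intro x hx
  exact absurd (by rw [← hx]; exact orderOf_dvd_natCard x) h

end

/-! ### `HS` -/

section HS

open Cfsg.Agent.H177.AAHS Cfsg.Agent.HN.HS100

theorem noTE_hsQ {p : ℕ} [hp : Fact p.Prime] (h5 : 5 ≤ p) : NoTE p Q := by
  have := finQ
  have hQ := Cfsg.Agent.HN.AutBound.card_Q
  by_cases hd : p ∣ Nat.card Q
  swap
  · exact noTE_of_not_dvd hd
  rw [hQ] at hd
  have hmem : p = 5 ∨ p = 7 ∨ p = 11 := by
    have h1 : p ∣ 2 ^ 9 * 3 ^ 2 * 5 ^ 3 * 7 * 11 := by
      have e : 2 ^ 9 * 3 ^ 2 * 5 ^ 3 * 7 * 11 = 44352000 := by norm_num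
      rwa [e]
    rcases (Nat.Prime.dvd_mul hp.out).1 h1 with h1 | h1
    swap
    · exact Or.inr (Or.inr ((Nat.prime_dvd_prime_iff_eq hp.out (by norm_num)).1 h1))
    rcases (Nat.Prime.dvd_mul hp.out).1 h1 with h1 | h1
    swap
    · exact Or.inr (Or.inl ((Nat.prime_dvd_prime_iff_eq hp.out (by norm_num)).1 h1))
    rcases (Nat.Prime.dvd_mul hp.out).1 h1 with h1 | h1
    swap
    · exact Or.inl ((Nat.prime_dvd_prime_iff_eq hp.out (by norm_num)).1 (hp.out.dvd_of_dvd_pow h1))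
    rcases (Nat.Prime.dvd_mul hp.out).1 h1 with h1 | h1
    · have := (Nat.prime_dvd_prime_iff_eq hp.out (by norm_num)).1 (hp.out.dvd_of_dvd_pow h1)
      omega
    · have := (Nat.prime_dvd_prime_iff_eq hp.out (by norm_num)).1 (hp.out.dvd_of_dvd_pow h1)
      omega
  rcases hmem with rfl | rfl | rfl
  · refine noTE_arith (r := 7) (by norm_num) (fun x y hx hy => ncommQ (Or.inr (Or.inr ⟨rfl, rfl⟩)) hx hy)
      3 1 ?_ (by decide) ?_ (by decide) Un_ne ?_ ?_
    · rw [hQ]; norm_num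
    · rw [hQ]; norm_num
    · rw [card_Un]; norm_num
    · rw [index_Un]; norm_num
  · refine noTE_arith (r := 11) (by norm_num) (fun x y hx hy => ncommQ (Or.inr (Or.inl ⟨rfl, rfl⟩)) hx hy)
      1 1 ?_ (by decide) ?_ (by decide) St_ne ?_ ?_
    · rw [hQ]; norm_num
    · rw [hQ]; norm_num
    · rw [card_St]; norm_num
    · rw [index_St]; norm_num
  · refine noTE_arith (r := 7) (by norm_num) (fun x y hx hy => (ncommQ (Or.inr (Or.inl ⟨rfl, rfl⟩)) hy hx).symm)
      1 1 ?_ (by decide) ?_ (by decide) St_ne ?_ ?_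
    · rw [hQ]; norm_num
    · rw [hQ]; norm_num
    · rw [card_St]; norm_num
    · rw [index_St]; norm_num

end HS

theorem noTE_hs {K : Type*} [Group K] [Finite K] [IsSimpleGroup K] (h : Cfsg.Spor.IsoHS K) {p : ℕ} [Fact p.Prime]
    (hp : 5 ≤ p) (_hb : Cfsg.Agent.H301.SY.Blk p K) (_hO : Cfsg.Agent.H301.SY.ThO p K) :
    Cfsg.Agent.H959.T5.NoTE p K := by
  have := Cfsg.Agent.H177.AAHS.finQ
  obtain ⟨f⟩ := Cfsg.Agent.HN.AutHS.nonempty_Q.1
  exact NoTE.congr (h.some.trans f.symm) (noTE_hsQ hp)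

/-! ### `McL` -/

section McL

theorem noTE_mcl {K : Type*} [Group K] [Finite K] [IsSimpleGroup K] (h : Cfsg.Spor.IsoMcL K) {p : ℕ} [hp : Fact p.Prime]
    (h5 : 5 ≤ p) (hb : Cfsg.Agent.H301.SY.Blk p K) (hO : Cfsg.Agent.H301.SY.ThO p K) :
    Cfsg.Agent.H959.T5.NoTE p K := by
  have hK : Nat.card K = 898128000 := NotCT.Orders.mcl h
  by_cases hd : p ∣ Nat.card K
  swap
  · exact noTE_of_not_dvd hd
  rw [hK] at hd
  have hmem : p = 5 ∨ p = 7 ∨ p = 11 := by
    have h1 : p ∣ 2 ^ 7 * 3 ^ 6 * 5 ^ 3 * 7 * 11 := by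
      have e : 2 ^ 7 * 3 ^ 6 * 5 ^ 3 * 7 * 11 = 898128000 := by norm_num
      rwa [e]
    rcases (Nat.Prime.dvd_mul hp.out).1 h1 with h1 | h1
    swap
    · exact Or.inr (Or.inr ((Nat.prime_dvd_prime_iff_eq hp.out (by norm_num)).1 h1))
    rcases (Nat.Prime.dvd_mul hp.out).1 h1 with h1 | h1
    swap
    · exact Or.inr (Or.inl ((Nat.prime_dvd_prime_iff_eq hp.out (by norm_num)).1 h1))
    rcases (Nat.Prime.dvd_mul hp.out).1 h1 with h1 | h1
    swap
    · exact Or.inl ((Nat.prime_dvd_prime_iff_eq hp.out (by norm_num)).1 (hp.out.dvd_of_dvd_pow h1))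
    rcases (Nat.Prime.dvd_mul hp.out).1 h1 with h1 | h1
    · have := (Nat.prime_dvd_prime_iff_eq hp.out (by norm_num)).1 (hp.out.dvd_of_dvd_pow h1)
      omega
    · have := (Nat.prime_dvd_prime_iff_eq hp.out (by norm_num)).1 (hp.out.dvd_of_dvd_pow h1)
      omega
  have hna : ¬ IsMulCommutative K := by
    intro hc
    have : Fact (Nat.Prime 7) := ⟨by norm_num⟩
    have : Fact (Nat.Prime 5) := ⟨by norm_num⟩
    obtain ⟨x, hx⟩ := exists_prime_orderOf_dvd_card' (G := K) 7 (by rw [hK]; norm_num)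
    obtain ⟨y, hy⟩ := exists_prime_orderOf_dvd_card' (G := K) 5 (by rw [hK]; norm_num)
    exact not_comm_of_card (by norm_num) (c := 14) (by norm_num)
      (fun P hP => (Cfsg.Agent.H904.McLCent.seven h P hP).1) hx hy (hc.is_comm.comm x y)
  obtain ⟨e⟩ := Cfsg.Agent.H707.Odd.equiv_of_card (K := K)
    (M := Cfsg.Agent.H707.Odd.McL.C ⧸ center Cfsg.Agent.H707.Odd.McL.C)
    (Or.inl (by unfold IsSporadicGroup; tauto)) Cfsg.Agent.H707.Odd.McL.main_C.2.2.1
    (by rw [Cfsg.Agent.H707.Odd.McL.card_quot, hK]) (by rw [hK]; norm_num)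
  set H : Subgroup K := Cfsg.Agent.H707.Odd.McL.B.comap e.toMonoidHom with hH
  have hHi : H.index = 7128 := by
    rw [hH, index_comap_of_surjective _ e.surjective, Cfsg.Agent.H707.Odd.McL.index_B]
  have hHc : Nat.card H = 126000 := by
    have h1 := H.card_mul_index
    rw [hHi, hK] at h1
    omega
  have hHt : H ≠ ⊤ := by
    intro h1
    rw [h1, Subgroup.index_top] at hHi
    norm_num at hHi
  rcases hmem with rfl | rfl | rfl
  · refine noTE_arith (r := 7) (by norm_num) (fun x y hx hy => (not_comm_of_card (by norm_num) (c := 14) (by norm_num)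
        (fun P hP => (Cfsg.Agent.H904.McLCent.seven h P hP).1) hy hx).symm) 3 1 ?_ (by decide) ?_ (by decide) hHt ?_ ?_
    · rw [hK]; norm_num
    · rw [hK]; norm_num
    · rw [hHc]; norm_num
    · rw [hHi]; norm_num
  · refine noTE_arith (r := 5) (by norm_num) (fun x y hx hy => (not_comm_of_card (by norm_num) (c := 14) (by norm_num)
        (fun P hP => (Cfsg.Agent.H904.McLCent.seven h P hP).1) hx hy)) 1 3 ?_ (by decide) ?_ (by decide) hHt ?_ ?_
    · rw [hK]; norm_num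
    · rw [hK]; norm_num
    · rw [hHc]; norm_num
    · rw [hHi]; norm_num
  · have hcyc : ∀ P : Sylow 11 K, IsCyclic (P : Subgroup K) := cyclic_of_card (by rw [hK]; norm_num)
    refine NoTE.of_num hna (by rw [hK]; norm_num) (by norm_num) hcyc hO (fun x hx hdx => ?_) (Or.inl ?_)
    · have h1 := (Cfsg.Agent.H904.McLCent.eleven h (zpowers x) (by rw [Nat.card_zpowers, hx])).1
      rw [Cfsg.Agent.H904.SylOne.centralizer_zpowers_eq] at h1
      rw [h1] at hdx
      norm_num at hdx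
    · intro i hi hdi hmod
      rw [hK] at hdi
      have h8 : i < 8 := by
        by_contra hlt
        exact absurd ((pow_dvd_pow 2 (not_lt.1 hlt)).trans hdi) (by norm_num)
      interval_cases i <;> revert hmod <;> decide

end McL

end Cfsg.Agent.H846.NoTESmall
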