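import Cfsg.Agent.H944.TS.Iface
import Cfsg.Agent.BpExc.LangFr
import Cfsg.Agent.H192.FieldFix
import Cfsg.Agent.ChevalleyStructure.StCenter
import Cfsg.Agent.ChevalleyStructure.Irreducible
import Cfsg.Agent.S1054
import Cfsg.Agent.S1076
import Cfsg.Agent.S1025

/-!
# `³D₄(2)` is a subgroup of `F₄(2)`

The long roots of `F₄` form a root system of type `D₄`; in characteristic two the root elements for them satisfy
Steinberg's relations of type `D₄` without signs, the product of two short fundamental reflections permutes them as a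
graph automorphism of order three, and Lang's theorem over the algebraic closure conjugates the fixed points of
(triality times Frobenius) into `F₄(2)`.
-/

set_option autoImplicit false

namespace Cfsg.Agent.H846.TdFour

open Cfsg Cfsg.Lie Cfsg.Agent.ChevalleyStructure Cfsg.Agent.ChevalleyStructure.Elts
  Cfsg.Agent.ChevalleyStructure.StBasic Cfsg.Agent.ChevalleyStructure.StTorus
  Cfsg.Agent.H192.FieldFix Cfsg.Agent.LangThm

universe u

theorem hD4 : InList chevD4 := by simp
theorem hF4 : InList chevF4 := by simp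

/-! ### The Steinberg group of type `D₄` in characteristic two -/

theorem good0 : GoodSimple chevD4 0 :=
  ⟨by decide +kernel, ⟨6, 22, 1, by decide +kernel⟩, ⟨1, 17, 1, by decide +kernel⟩, by decide +kernel⟩
theorem good1 : GoodSimple chevD4 1 :=
  ⟨by decide +kernel, ⟨1, 23, -1, by decide +kernel⟩, ⟨0, 22, -1, by decide +kernel⟩, by decide +kernel⟩
theorem good2 : GoodSimple chevD4 2 :=
  ⟨by decide +kernel, ⟨3, 22, -1, by decide +kernel⟩, ⟨1, 20, -1, by decide +kernel⟩, by decide +kernel⟩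
theorem good3 : GoodSimple chevD4 3 :=
  ⟨by decide +kernel, ⟨2, 22, -1, by decide +kernel⟩, ⟨1, 21, -1, by decide +kernel⟩, by decide +kernel⟩

theorem simple_lt : ∀ i < chevD4.rank, chevD4.simple i < chevD4.nroots := by decide +kernel

theorem good (i j : ℕ) (hi : i < chevD4.rank) (_hj : j < chevD4.rank) (_hij : i ≠ j) :
    GoodSimple chevD4 i ∨ GoodSimple chevD4 j := by
  left
  change i < 4 at hi
  interval_cases i
  · exact good0
  · exact good1
  · exact good2
  · exact good3

section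
variable (k : Type u) [Field k] [CharP k 2]

theorem center_eq_bot {t : Fin 4 → kˣ}
    (h : ∀ s < 24, ∏ i : Fin 4, t i ^ chevD4.cartan i s = 1) : t = 1 := by
  have h0 := h 18 (by norm_num)
  have h1 := h 14 (by norm_num)
  have h2 := h 13 (by norm_num)
  have h3 := h 12 (by norm_num)
  have c0 : (fun i : Fin 4 => chevD4.cartan i 18) = ![2, -1, 0, 0] := by decide +kernel
  have c1 : (fun i : Fin 4 => chevD4.cartan i 14) = ![-1, 2, -1, -1] := by decide +kernel
  have c2 : (fun i : Fin 4 => chevD4.cartan i 13) = ![0, -1, 2, 0] := by decide +kernel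
  have c3 : (fun i : Fin 4 => chevD4.cartan i 12) = ![0, -1, 0, 2] := by decide +kernel
  have e0 : ∀ i : Fin 4, chevD4.cartan i 18 = ![2, -1, 0, 0] i := fun i => congrFun c0 i
  have e1 : ∀ i : Fin 4, chevD4.cartan i 14 = ![-1, 2, -1, -1] i := fun i => congrFun c1 i
  have e2 : ∀ i : Fin 4, chevD4.cartan i 13 = ![0, -1, 2, 0] i := fun i => congrFun c2 i
  have e3 : ∀ i : Fin 4, chevD4.cartan i 12 = ![0, -1, 0, 2] i := fun i => congrFun c3 i
  simp only [e0, e1, e2, e3, Fin.prod_univ_four, Matrix.cons_val_zero, Matrix.cons_val_one, Matrix.cons_val] at h0 h1 h2 h3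
  simp only [zpow_neg, zpow_one, zpow_zero, mul_one, one_mul] at h0 h1 h2 h3
  -- h0 : t0^2 * t1⁻¹ = 1 etc.
  have f0 : t 0 ^ 2 = t 1 := by
    have := mul_inv_eq_one.mp h0
    exact_mod_cast this
  have sq : ∀ a b : kˣ, a ^ 2 = b ^ 2 → a = b := by
    intro a b hab
    have h1 : ((a : k)) ^ 2 = (b : k) ^ 2 := by
      have := congrArg (Units.val) hab
      simpa using this
    have : Function.Injective (frobenius k 2) := frobenius_inj k 2
    exact Units.ext (this (by simpa [frobenius_def] using h1))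
  have f2 : t 2 ^ 2 = t 1 := by
    have h2' : (t 1)⁻¹ * t 2 ^ 2 = 1 := by exact_mod_cast h2
    exact (inv_mul_eq_one.mp h2').symm
  have f3 : t 3 ^ 2 = t 1 := by
    have h3' : (t 1)⁻¹ * t 3 ^ 2 = 1 := by exact_mod_cast h3
    exact (inv_mul_eq_one.mp h3').symm
  have g2 : t 2 = t 0 := sq _ _ (f2.trans f0.symm)
  have g3 : t 3 = t 0 := sq _ _ (f3.trans f0.symm)
  have h1' : (t 0)⁻¹ * t 1 ^ 2 * (t 2)⁻¹ * (t 3)⁻¹ = 1 := by exact_mod_cast h1
  rw [g2, g3, ← f0] at h1'
  have g0 : t 0 = 1 := by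
    have : (t 0)⁻¹ * (t 0 ^ 2) ^ 2 * (t 0)⁻¹ * (t 0)⁻¹ = t 0 := by
      rw [← pow_mul]
      group
    rw [this] at h1'
    exact h1'
  have g1 : t 1 = 1 := by rw [← f0, g0, one_pow]
  funext i
  fin_cases i
  · exact g0
  · exact g1
  · show t 2 = 1; rw [g2, g0]
  · show t 3 = 1; rw [g3, g0]

/-- The Steinberg group of type `D₄` in characteristic two is the Chevalley group. -/
theorem exists_theta : ∃ θ : chevD4.SteinbergGroup k ≃* ↥(chevD4.group k), ∀ (r : ℕ) (t : k), r < chevD4.nroots →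
    ((θ (chevD4.stGen k r t) : GL chevD4.Idx k) : Matrix chevD4.Idx chevD4.Idx k) = chevD4.x k r t := by
  obtain ⟨θ, hsurj, hker, hθ⟩ := Cfsg.Agent.S1077.result (K := k) chevD4 hD4
  have hconj : ∀ (i s : ℕ), i < chevD4.rank → s < chevD4.nroots → ∀ (c : k), c ≠ 0 → ∀ t : k,
      chevD4.hMat k (chevD4.simple i) c * chevD4.x k s t =
        chevD4.x k s (c ^ (chevD4.cartan i s) * t) * chevD4.hMat k (chevD4.simple i) c :=
    fun i s hi hsn c hc t => Cfsg.Agent.S1032.result chevD4 hD4 i s hi hsn c hc t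
  have hdiag : ∀ (i : ℕ), i < chevD4.rank → ∀ (c : k), c ≠ 0 → chevD4.hMat k (chevD4.simple i) c =
      Matrix.diagonal (Sum.elim (fun _ => (1 : k)) (fun s : Fin chevD4.nroots => c ^ (chevD4.cartan i s))) :=
    fun i hi c hc => Cfsg.Agent.S1033.result chevD4 hD4 i hi c hc
  have hcomm := pairwise_commute θ hker hθ hconj simple_lt good
  have hinj : Function.Injective θ := by
    rw [← MonoidHom.ker_eq_bot_iff, eq_bot_iff]
    intro g hg
    obtain ⟨t, rfl⟩ := ((Cfsg.Agent.S1097.result chevD4 hD4 θ hθ).trans (closure_le_range_Phi simple_lt hcomm)) hg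
    rw [Phi_mem_ker_iff θ hθ hdiag simple_lt hcomm] at hg
    have ht : t = 1 := center_eq_bot k hg
    rw [ht, map_one]
    exact one_mem _
  exact ⟨MulEquiv.ofBijective θ ⟨hinj, hsurj⟩, hθ⟩

/-! ### The embedding of type `D₄` into type `F₄` -/

/-- the long roots of `F₄`, as images of the roots of `D₄` -/
def ioL : List ℕ := [46, 23, 30, 41, 45, 21, 25, 32, 43, 47, 5, 16, 31, 42, 0, 4, 15, 22, 26, 2, 6, 17, 24, 1]

/-- `D₄ → F₄` on root indices; out of range if the argument is -/
def io (r : ℕ) : ℕ := ioL.getD r 48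

theorem io_of_not_lt {r : ℕ} (h : ¬ r < 24) : ¬ io r < chevF4.nroots := by
  have : ioL.length ≤ r := by
    show 24 ≤ r
    omega
  rw [io, List.getD_eq_default _ _ this]
  decide +kernel

theorem io_lt : ∀ r < 24, io r < chevF4.nroots := by decide +kernel
theorem io_inj : ∀ r < 24, ∀ s < 24, io r = io s → r = s := by decide +kernel
theorem io_neg : ∀ r < 24, io (chevD4.neg r) = chevF4.neg (io r) := by decide +kernel
theorem neg_lt' : ∀ r < 24, chevD4.neg r < 24 := by decide +kernel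

theorem io_comm_tab : ((List.range 24).all fun r => (List.range 24).all fun s =>
    s == r || s == chevD4.neg r ||
    ((chevF4.commTerms (io r) (io s)).map (fun c => (c.1, c.2.1 % 2, c.2.2)) ==
      (chevD4.commTerms r s).map (fun c => (io c.1, c.2.1 % 2, c.2.2)))) = true := by
  decide +kernel

theorem io_comm (r : ℕ) (hr : r < 24) (s : ℕ) (hs : s < 24) (h1 : s ≠ r) (h2 : s ≠ chevD4.neg r) :
    (chevF4.commTerms (io r) (io s)).map (fun c => (c.1, c.2.1 % 2, c.2.2)) =
      (chevD4.commTerms r s).map (fun c => (io c.1, c.2.1 % 2, c.2.2)) := by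
  have h := List.all_eq_true.1 (List.all_eq_true.1 io_comm_tab r (List.mem_range.2 hr)) s (List.mem_range.2 hs)
  simpa [h1, h2] using h

end

section
variable {k : Type u} [Field k] [CharP k 2]

theorem int_mod (c : ℤ) : ((c % 2 : ℤ) : k) = (c : k) := by
  have h : (2 : k) = 0 := CharTwo.two_eq_zero
  conv_rhs => rw [← Int.emod_add_mul_ediv c 2]
  push_cast
  rw [h]
  ring

theorem word_eq {r s : ℕ} (hr : r < 24) (hs : s < 24) (h1 : s ≠ r) (h2 : s ≠ chevD4.neg r) (t u : k) :
    wordG hF4 (chevF4.commWord k (io r) (io s) t u) =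
      ((chevD4.commWord k r s t u).map fun p => xG hF4 (io p.1) p.2).prod := by
  let g : ℕ × ℤ × ℕ × ℕ → GL chevF4.Idx k := fun c => xG hF4 c.1 ((c.2.1 : k) * (-t) ^ c.2.2.1 * u ^ c.2.2.2)
  have hg : ∀ c : ℕ × ℤ × ℕ × ℕ, g (c.1, c.2.1 % 2, c.2.2) = g c := by
    intro c
    show xG hF4 c.1 (((c.2.1 % 2 : ℤ) : k) * (-t) ^ c.2.2.1 * u ^ c.2.2.2) = _
    rw [int_mod]
  have e1 : wordG hF4 (chevF4.commWord k (io r) (io s) t u) = ((chevF4.commTerms (io r) (io s)).map g).prod := by
    show (List.map _ (List.map _ _)).prod = _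
    rw [List.map_map]
    rfl
  have e2 : ((chevD4.commWord k r s t u).map fun p => xG hF4 (io p.1) p.2).prod =
      ((chevD4.commTerms r s).map fun c => g (io c.1, c.2)).prod := by
    show (List.map _ (List.map _ _)).prod = _
    rw [List.map_map]
    rfl
  rw [e1, e2]
  have e3 : (chevF4.commTerms (io r) (io s)).map g =
      ((chevF4.commTerms (io r) (io s)).map (fun c => (c.1, c.2.1 % 2, c.2.2))).map g := by
    rw [List.map_map]
    exact List.map_congr_left fun c _ => (hg c).symm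
  have e4 : ((chevD4.commTerms r s).map fun c => g (io c.1, c.2)) =
      ((chevD4.commTerms r s).map (fun c => (io c.1, c.2.1 % 2, c.2.2))).map g := by
    rw [List.map_map]
    exact List.map_congr_left fun c _ => (hg (io c.1, c.2)).symm
  rw [e3, e4, io_comm r hr s hs h1 h2]

omit [CharP k 2] in
theorem hword_eq {r : ℕ} (hr : r < 24) (t : k) :
    ((chevD4.hWord r t).map fun p => xG hF4 (io p.1) p.2).prod = hG hF4 (io r) t := by
  show _ = (List.map (fun p => xG hF4 p.1 p.2) (chevF4.hWord (io r) t)).prod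
  congr 1
  show [xG hF4 (io r) t, xG hF4 (io (chevD4.neg r)) (-t⁻¹), xG hF4 (io r) t, xG hF4 (io r) (-1 : k),
    xG hF4 (io (chevD4.neg r)) (-(-1 : k)⁻¹), xG hF4 (io r) (-1 : k)] =
    [xG hF4 (io r) t, xG hF4 (chevF4.neg (io r)) (-t⁻¹), xG hF4 (io r) t, xG hF4 (io r) (-1 : k),
    xG hF4 (chevF4.neg (io r)) (-(-1 : k)⁻¹), xG hF4 (io r) (-1 : k)]
  rw [io_neg r hr]

variable (k) in
/-- the homomorphism from the Steinberg group of type `D₄` -/
noncomputable def stHom : chevD4.SteinbergGroup k →* GL chevF4.Idx k :=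
  lift chevD4 (fun r t => xG hF4 (io r) t)
    (fun r t hr => xG_of_not_lt hF4 (io_of_not_lt hr) t)
    (fun r t₁ t₂ _ => xG_add hF4 (io r) t₁ t₂)
    (fun r s t u hr hs h1 h2 => by
      rw [← word_eq hr hs h1 h2]
      have hne : io s ≠ io r := fun e => h1 (io_inj s hs r hr e)
      have hneg : io s ≠ chevF4.neg (io r) := fun e => h2 (io_inj s hs _ (neg_lt' r hr) (e.trans (io_neg r hr).symm))
      have h3 : xG hF4 (io s) u * xG hF4 (io r) t =
          xG hF4 (io r) t * xG hF4 (io s) u * wordG hF4 (chevF4.commWord k (io r) (io s) t u) :=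
        Units.ext (by
          rw [Units.val_mul, Units.val_mul, Units.val_mul, coe_wordG]
          exact Cfsg.Agent.S1025.result chevF4 hF4 (io r) (io s) (io_lt r hr) (io_lt s hs) hne hneg t u)
      rw [mul_assoc, h3]
      group)
    (fun r t₁ t₂ hr h₁ h₂ => by
      rw [hword_eq hr, hword_eq hr, hword_eq hr]
      exact Units.ext (by
        rw [Units.val_mul]
        exact Cfsg.Agent.S1076.result chevF4 hF4 (io r) (io_lt r hr) t₁ t₂ h₁ h₂))

theorem stHom_stGen (r : ℕ) (t : k) : stHom k (chevD4.stGen k r t) = xG hF4 (io r) t :=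
  lift_stGen chevD4 _ _ _ _ _ r t

variable (k) in
/-- **`D₄(k) → F₄(k)` in characteristic two.** -/
theorem exists_psi : ∃ ψ : ↥(chevD4.group k) →* GL chevF4.Idx k, Function.Injective ψ ∧
    (∀ g, ψ g ∈ chevF4.group k) ∧ ∀ (r : ℕ) (t : k), ψ ⟨xG hD4 r t, xG_mem_group hD4 r t⟩ = xG hF4 (io r) t := by
  obtain ⟨θ, hθ⟩ := exists_theta k
  have hgen : ∀ (r : ℕ) (t : k), θ (chevD4.stGen k r t) = ⟨xG hD4 r t, xG_mem_group hD4 r t⟩ := by
    intro r t
    by_cases hr : r < chevD4.nroots
    · exact Subtype.ext (Units.ext (hθ r t hr))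
    · rw [stGen_of_not_lt chevD4 hr, map_one]
      exact Subtype.ext (xG_of_not_lt hD4 hr t).symm
  refine ⟨(stHom k).comp θ.symm.toMonoidHom, ?_, ?_, ?_⟩
  · have hS := (Cfsg.Agent.S1054.result (F := k) chevD4 (by simp)).1
    rw [← MonoidHom.ker_eq_bot_iff]
    rcases (inferInstance : ((stHom k).comp θ.symm.toMonoidHom).ker.Normal).eq_bot_or_eq_top with h | h
    · exact h
    · exfalso
      have h1 : (⟨xG hD4 0 (1 : k), xG_mem_group hD4 0 1⟩ : ↥(chevD4.group k)) ∈
          ((stHom k).comp θ.symm.toMonoidHom).ker := by rw [h]; exact Subgroup.mem_top _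
      rw [MonoidHom.mem_ker, ← hgen] at h1
      change stHom k (θ.symm (θ _)) = 1 at h1
      rw [MulEquiv.symm_apply_apply, stHom_stGen, xG_eq_one_iff hF4 (io_lt 0 (by norm_num))] at h1
      exact one_ne_zero h1
  · intro g
    obtain ⟨x, rfl⟩ := θ.surjective g
    show stHom k (θ.symm (θ x)) ∈ _
    rw [MulEquiv.symm_apply_apply]
    have hx : x ∈ Subgroup.closure {g : chevD4.SteinbergGroup k | ∃ (r : ℕ) (t : k), r < chevD4.nroots ∧
        g = chevD4.stGen k r t} := by rw [closure_stGen]; exact Subgroup.mem_top x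
    induction hx using Subgroup.closure_induction with
    | mem x hx =>
      obtain ⟨r, t, -, rfl⟩ := hx
      rw [stHom_stGen]
      exact xG_mem_group hF4 _ _
    | one => rw [map_one]; exact one_mem _
    | mul a b _ _ ha hb => rw [map_mul]; exact mul_mem ha hb
    | inv a _ ha => rw [map_inv]; exact inv_mem ha
  · intro r t
    rw [← hgen]
    show stHom k (θ.symm (θ _)) = _
    rw [MulEquiv.symm_apply_apply, stHom_stGen]


/-! ### The Weyl element of order three -/

variable (k) in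
/-- the product of the two short fundamental reflections -/
noncomputable def nn : GL chevF4.Idx k := nG hF4 (chevF4.simple 0) 1 * nG hF4 (chevF4.simple 1) 1

omit [CharP k 2] in
theorem nn_mem : nn k ∈ chevF4.group k := mul_mem (nG_mem_group hF4 _ _) (nG_mem_group hF4 _ _)

theorem nG_conj' {i s : ℕ} (hi : i < 4) (hs : s < 48) (t : k) :
    nG hF4 (chevF4.simple i) 1 * xG hF4 s t * (nG hF4 (chevF4.simple i) 1)⁻¹ = xG hF4 (chevF4.reflectRoot i s) t := by
  obtain ⟨η, hη, h⟩ := Cfsg.Agent.ChevalleyStructure.Irreducible.nG_conj (F := k) hF4 i s hi hs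
  have h1 : (η : k) = 1 := by
    rcases hη with rfl | rfl
    · simp
    · rw [Int.cast_neg, Int.cast_one, CharTwo.neg_eq]
  rw [h t, h1, one_mul, mul_inv_cancel_right]

theorem nn_conj {s : ℕ} (hs : s < 48) (hs' : chevF4.reflectRoot 1 s < 48) (t : k) :
    nn k * xG hF4 s t * (nn k)⁻¹ = xG hF4 (chevF4.reflectRoot 0 (chevF4.reflectRoot 1 s)) t := by
  rw [nn, mul_inv_rev]
  have h1 := nG_conj' (i := 1) (by norm_num) hs t
  have h2 := nG_conj' (i := 0) (by norm_num) hs' t
  rw [← h2, ← h1]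
  group

/-- the graph automorphism of order three of `D₄` on the roots used -/
theorem tab_w : (io 14 = 0 ∧ io 9 = 47) ∧ io 18 = 26 ∧ io 13 = 42 ∧ io 12 = 31 ∧ io 5 = 21 ∧ io 10 = 5 ∧ io 11 = 16 := by
  decide +kernel

theorem tab_r : ∀ r ∈ [9, 14, 18, 13, 12, 5, 10, 11], chevF4.reflectRoot 1 (io r) < 48 := by decide +kernel

theorem tab_rr : chevF4.reflectRoot 0 (chevF4.reflectRoot 1 (io 14)) = io 14 ∧
    chevF4.reflectRoot 0 (chevF4.reflectRoot 1 (io 9)) = io 9 ∧
    chevF4.reflectRoot 0 (chevF4.reflectRoot 1 (io 18)) = io 13 ∧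
    chevF4.reflectRoot 0 (chevF4.reflectRoot 1 (io 13)) = io 12 ∧
    chevF4.reflectRoot 0 (chevF4.reflectRoot 1 (io 12)) = io 18 ∧
    chevF4.reflectRoot 0 (chevF4.reflectRoot 1 (io 5)) = io 10 ∧
    chevF4.reflectRoot 0 (chevF4.reflectRoot 1 (io 10)) = io 11 ∧
    chevF4.reflectRoot 0 (chevF4.reflectRoot 1 (io 11)) = io 5 := by decide +kernel

theorem nn_io {r : ℕ} (hr : r ∈ [9, 14, 18, 13, 12, 5, 10, 11]) (t : k) :
    nn k * xG hF4 (io r) t * (nn k)⁻¹ = xG hF4 (chevF4.reflectRoot 0 (chevF4.reflectRoot 1 (io r))) t :=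
  nn_conj (by revert r; decide +kernel) (tab_r r hr) t


/-! ### Words for `³D₄` -/

omit [CharP k 2] in
theorem commute_xG {r s : ℕ} (hr : r < 24) (hs : s < 24) (h1 : s ≠ r) (h2 : s ≠ chevD4.neg r)
    (h : chevF4.commTerms (io r) (io s) = []) (t u : k) :
    xG hF4 (io s) u * xG hF4 (io r) t = xG hF4 (io r) t * xG hF4 (io s) u := by
  have hne : io s ≠ io r := fun e => h1 (io_inj s hs r hr e)
  have hneg : io s ≠ chevF4.neg (io r) := fun e => h2 (io_inj s hs _ (neg_lt' r hr) (e.trans (io_neg r hr).symm))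
  have h3 : xG hF4 (io s) u * xG hF4 (io r) t =
      xG hF4 (io r) t * xG hF4 (io s) u * wordG hF4 (chevF4.commWord k (io r) (io s) t u) :=
    Units.ext (by
      rw [Units.val_mul, Units.val_mul, Units.val_mul, coe_wordG]
      exact Cfsg.Agent.S1025.result chevF4 hF4 (io r) (io s) (io_lt r hr) (io_lt s hs) hne hneg t u)
  have h4 : wordG hF4 (chevF4.commWord k (io r) (io s) t u) = 1 := by
    show (List.map _ (List.map _ (chevF4.commTerms (io r) (io s)))).prod = 1
    rw [h]
    rfl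
  rw [h3, h4, mul_one]

/-- the twisted Frobenius map -/
noncomputable def sg (g : GL chevF4.Idx k) : GL chevF4.Idx k := nn k * frob 2 1 g * (nn k)⁻¹

theorem sg_mul (g h : GL chevF4.Idx k) : sg (g * h) = sg g * sg h := by
  rw [sg, sg, sg, map_mul]
  group

theorem sg_xG {r : ℕ} (hr : r ∈ [9, 14, 18, 13, 12, 5, 10, 11]) (t : k) :
    sg (xG hF4 (io r) t) = xG hF4 (chevF4.reflectRoot 0 (chevF4.reflectRoot 1 (io r))) (t ^ 2) := by
  rw [sg, frob_xG, nn_io hr]
  rfl

theorem sg_one_word (t : k) (ht : t ^ 2 = t) {r : ℕ} (hr : r = 14 ∨ r = 9) :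
    sg (xG hF4 (io r) t) = xG hF4 (io r) t := by
  rcases hr with rfl | rfl
  · rw [sg_xG (by simp), tab_rr.1, ht]
  · rw [sg_xG (by simp), tab_rr.2.1, ht]

theorem rot {G : Type*} [Group G] {a b c : G} (h1 : b * a = a * b) (h2 : c * a = a * c) : b * c * a = a * b * c := by
  rw [mul_assoc, h2, ← mul_assoc, h1]

theorem sg_three_pos (t : k) (ht : t ^ 8 = t) :
    sg (xG hF4 (io 18) t * xG hF4 (io 13) (t ^ 2) * xG hF4 (io 12) (t ^ 4)) =
      xG hF4 (io 18) t * xG hF4 (io 13) (t ^ 2) * xG hF4 (io 12) (t ^ 4) := by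
  rw [sg_mul, sg_mul, sg_xG (by simp), sg_xG (by simp), sg_xG (by simp), tab_rr.2.2.1, tab_rr.2.2.2.1,
    tab_rr.2.2.2.2.1, ← pow_mul, ← pow_mul, show 4 * 2 = 8 from rfl, ht, show 2 * 2 = 4 from rfl]
  exact rot
    (commute_xG (by norm_num) (by norm_num) (by norm_num) (by decide +kernel) (by decide +kernel) _ _)
    (commute_xG (by norm_num) (by norm_num) (by norm_num) (by decide +kernel) (by decide +kernel) _ _)

theorem sg_three_neg (t : k) (ht : t ^ 8 = t) :
    sg (xG hF4 (io 5) t * xG hF4 (io 10) (t ^ 2) * xG hF4 (io 11) (t ^ 4)) =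
      xG hF4 (io 5) t * xG hF4 (io 10) (t ^ 2) * xG hF4 (io 11) (t ^ 4) := by
  rw [sg_mul, sg_mul, sg_xG (by simp), sg_xG (by simp), sg_xG (by simp), tab_rr.2.2.2.2.2.1,
    tab_rr.2.2.2.2.2.2.1, tab_rr.2.2.2.2.2.2.2, ← pow_mul, ← pow_mul, show 4 * 2 = 8 from rfl, ht,
    show 2 * 2 = 4 from rfl]
  exact rot
    (commute_xG (by norm_num) (by norm_num) (by norm_num) (by decide +kernel) (by decide +kernel) _ _)
    (commute_xG (by norm_num) (by norm_num) (by norm_num) (by decide +kernel) (by decide +kernel) _ _)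

end

/-! ### The conjugation -/

section
variable {k : Type u} [Field k] [CharP k 2] [IsAlgClosed k]

theorem exists_lang : ∃ y : GL chevF4.Idx k, y ∈ chevF4.group k ∧ nn k = y⁻¹ * frob 2 1 y := by
  have hle : MM hF4 Set.univ k ≤ chevF4.group k := by
    rw [MM, Subgroup.closure_le]
    rintro _ ⟨r, -, t, rfl⟩
    exact xG_mem_group hF4 r t
  have hm : nn k ∈ MM hF4 Set.univ k := by
    have h1 : chevF4.group k ≤ MM hF4 Set.univ k := by
      rw [group_le_iff hF4]
      intro r _ t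
      exact Subgroup.subset_closure ⟨r, Set.mem_univ r, t, rfl⟩
    exact h1 nn_mem
  obtain ⟨y, hy, h⟩ := lang_chev hF4 2 1 one_pos Set.univ (1 : GL chevF4.Idx k)
    (fun r _ => ⟨r, Set.mem_univ r, Polynomial.X, fun t => by
      rw [Polynomial.eval_X, one_mul, inv_one, mul_one]⟩) hm
  refine ⟨y, hle hy, ?_⟩
  rw [one_mul, inv_one, mul_one] at h
  exact h

omit [IsAlgClosed k] in
theorem conj_fixed {y τ : GL chevF4.Idx k} (hy : nn k = y⁻¹ * frob 2 1 y) (hτ : sg τ = τ) :
    frob 2 1 (y * τ * y⁻¹) = y * τ * y⁻¹ := by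
  rw [map_mul, map_mul, map_inv]
  have h1 : frob 2 1 y = y * nn k := by rw [hy]; group
  rw [h1]
  conv_rhs => rw [← hτ]
  rw [sg]
  group

omit [IsAlgClosed k] in
theorem frob_eq (g : GL chevF4.Idx k) : frob 2 1 g = glMap chevF4 (frobenius k 2) g := by
  apply Units.ext
  ext i j
  show iterateFrobenius k 2 1 _ = frobenius k 2 _
  rw [iterateFrobenius_one]

end

theorem unimod : Unimod chevF4 :=
  ⟨fun j k => ((#[#[2, 3, 2, 1], #[3, 6, 4, 2], #[4, 8, 6, 3], #[2, 4, 3, 2]] : Array (Array ℤ)).getD j #[]).getD k 0,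
    by decide +kernel⟩

theorem simple_lt4 : ∀ k < chevF4.rank, chevF4.simple k < chevF4.nroots := by decide +kernel

theorem sg_inv {k : Type u} [Field k] [CharP k 2] (g : GL chevF4.Idx k) : sg g⁻¹ = (sg g)⁻¹ := by
  rw [sg, sg, map_inv]
  group

theorem sg_one {k : Type u} [Field k] [CharP k 2] : sg (1 : GL chevF4.Idx k) = 1 := by
  rw [sg, map_one]
  group

/-- **`³D₄(2) → F₄(2)`** -/
theorem exists_hom (E F : Type) [Field E] [Fintype E] (hE : Fintype.card E = 2 ^ 3) [Field F] [Fintype F]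
    (hF : Fintype.card F = 2) : ∃ f : ↥(twistedD4 E 2) →* ↥(chevF4.group F), Function.Injective f := by
  classical
  have : CharP E 2 := charP_of_card_eq_prime_pow hE
  have : CharP F 2 := charP_of_card_eq_prime hF
  let : Algebra (ZMod 2) E := ZMod.algebra E 2
  let : Algebra (ZMod 2) F := ZMod.algebra F 2
  let k := AlgebraicClosure (ZMod 2)
  have : CharP k 2 := inferInstance
  let j : E →+* k := (IsAlgClosed.lift : E →ₐ[ZMod 2] k)
  let ι : F →+* k := (IsAlgClosed.lift : F →ₐ[ZMod 2] k)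
  obtain ⟨ψ, hψ, hψm, hψx⟩ := exists_psi k
  obtain ⟨y, hy, hyl⟩ := exists_lang (k := k)
  have hle : twistedD4 E 2 ≤ chevD4.group E := by
    rw [twistedD4, ChevalleyDatum.genSubgroup, Subgroup.closure_le]
    rintro g ⟨w, -, hw⟩
    rw [(eq_wordG_iff hD4 g w).2 hw]
    exact wordG_mem_group hD4 w
  let A : ↥(twistedD4 E 2) →* ↥(chevD4.group k) :=
    ((glMap chevD4 j).comp (twistedD4 E 2).subtype).codRestrict (chevD4.group k)
      (fun g => glMap_group hD4 j (hle g.2))
  have hA : Function.Injective A := by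
    intro a b hab
    apply Subtype.ext
    apply glMap_injective chevD4 j
    exact congrArg Subtype.val hab
  have hword : ∀ v : List (ℕ × k), ψ ⟨wordG hD4 v, wordG_mem_group hD4 v⟩ =
      (v.map fun p => xG hF4 (io p.1) p.2).prod := by
    intro v
    induction v with
    | nil => exact map_one ψ
    | cons p v ih =>
      rw [List.map_cons, List.prod_cons, ← ih, ← hψx, ← map_mul]
      rfl
  have hq8 : ∀ t : E, (j t) ^ 8 = j t := by
    intro t
    have h1 := FiniteField.pow_card t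
    rw [hE] at h1
    rw [← map_pow]
    exact congrArg j h1
  have hgen : ∀ (g : GL chevD4.Idx E) (_ : g ∈ twistedD4 E 2) (a : ↥(chevD4.group k)),
      (a : GL chevD4.Idx k) = glMap chevD4 j g → sg (ψ a) = ψ a := by
    intro g hg
    induction hg using Subgroup.closure_induction with
    | mem x hx =>
      intro a ha
      obtain ⟨w, hw, hxw⟩ := hx
      obtain rfl := (eq_wordG_iff hD4 x w).2 hxw
      have h1 : a = ⟨wordG hD4 (w.map fun p => (p.1, j p.2)), wordG_mem_group hD4 _⟩ :=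
        Subtype.ext (ha.trans (glMap_wordG hD4 j w))
      rw [h1, hword, List.map_map]
      rcases hw with ⟨t, ht, r, hr, rfl⟩ | ⟨t, rs, hrs, rfl⟩
      · show sg (xG hF4 (io r) (j t) * 1) = xG hF4 (io r) (j t) * 1
        rw [mul_one]
        apply sg_one_word
        · rw [← map_pow, ht]
        · simpa [d4p2, d4m2] using hr
      · simp only [List.mem_cons, List.not_mem_nil, or_false] at hrs
        rcases hrs with rfl | rfl
        · show sg (xG hF4 (io 18) (j t) * (xG hF4 (io 13) (j (t ^ 2)) * (xG hF4 (io 12) (j (t ^ (2 ^ 2))) * 1))) =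
            xG hF4 (io 18) (j t) * (xG hF4 (io 13) (j (t ^ 2)) * (xG hF4 (io 12) (j (t ^ (2 ^ 2))) * 1))
          rw [mul_one, ← mul_assoc, map_pow, map_pow]
          exact sg_three_pos (j t) (hq8 t)
        · show sg (xG hF4 (io 5) (j t) * (xG hF4 (io 10) (j (t ^ 2)) * (xG hF4 (io 11) (j (t ^ (2 ^ 2))) * 1))) =
            xG hF4 (io 5) (j t) * (xG hF4 (io 10) (j (t ^ 2)) * (xG hF4 (io 11) (j (t ^ (2 ^ 2))) * 1))
          rw [mul_one, ← mul_assoc, map_pow, map_pow]
          exact sg_three_neg (j t) (hq8 t)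
    | one =>
      intro a ha
      have h1 : a = 1 := Subtype.ext (ha.trans (map_one _))
      rw [h1, map_one, sg_one]
    | mul a b ha hb iha ihb =>
      intro c hc
      have h1 : c = (⟨glMap chevD4 j a, glMap_group hD4 j (hle ha)⟩ : ↥(chevD4.group k)) *
          ⟨glMap chevD4 j b, glMap_group hD4 j (hle hb)⟩ := Subtype.ext (hc.trans (map_mul _ _ _))
      rw [h1, map_mul, sg_mul, iha _ rfl, ihb _ rfl]
    | inv a ha iha =>
      intro c hc
      have h1 : c = (⟨glMap chevD4 j a, glMap_group hD4 j (hle ha)⟩ : ↥(chevD4.group k))⁻¹ :=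
        Subtype.ext (hc.trans (map_inv _ _))
      rw [h1, map_inv, sg_inv, iha _ rfl]
  have hfix : ∀ g : ↥(twistedD4 E 2), sg (ψ (A g)) = ψ (A g) := fun g => hgen g g.2 (A g) rfl
  have ht : ∀ g : ↥(twistedD4 E 2), ∃ g' ∈ chevF4.group F, glMap chevF4 ι g' = y * ψ (A g) * y⁻¹ := by
    intro g
    refine group_mem_range hF4 unimod simple_lt4 (frobenius k 2) ι ?_
      (mul_mem (mul_mem hy (hψm _)) (inv_mem hy)) ?_
    · intro t ht
      rw [frobenius_def] at ht
      have h1 : t * (t - 1) = 0 := by rw [mul_sub, mul_one, ← pow_two, ht, sub_self]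
      rcases mul_eq_zero.mp h1 with h | h
      · exact ⟨0, by rw [map_zero, h]⟩
      · exact ⟨1, by rw [map_one]; exact (sub_eq_zero.mp h).symm⟩
    · rw [← frob_eq]
      exact conj_fixed hyl (hfix g)
  let B : ↥(twistedD4 E 2) →* GL chevF4.Idx k := (MulAut.conj y).toMonoidHom.comp (ψ.comp A)
  let C : ↥(chevF4.group F) →* GL chevF4.Idx k := (glMap chevF4 ι).comp (chevF4.group F).subtype
  have hC : Function.Injective C := by
    intro a b hab
    exact Subtype.ext (glMap_injective chevF4 ι hab)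
  have hBC : ∀ g, B g ∈ C.range := by
    intro g
    obtain ⟨g', hg', h⟩ := ht g
    exact ⟨⟨g', hg'⟩, h⟩
  refine ⟨(MonoidHom.ofInjective hC).symm.toMonoidHom.comp (B.codRestrict C.range hBC), ?_⟩
  refine (MonoidHom.ofInjective hC).symm.injective.comp ?_
  intro a b hab
  have h1 : B a = B b := congrArg Subtype.val hab
  exact hA (hψ ((MulAut.conj y).injective h1))

/-- **B5 of S5741**: `³D₄(2)` is a subgroup of `F₄(2)`. -/
theorem sub : Cfsg.Agent.H944.TS.Sub.{u} (.f4 2) (.td4 2) := by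
  rintro X _ ⟨F, i1, i2, hF, ⟨e⟩⟩
  have : Fact (Nat.Prime 2) := ⟨Nat.prime_two⟩
  let : Fintype (GaloisField 2 3) := Fintype.ofFinite _
  have hE : Fintype.card (GaloisField 2 3) = 2 ^ 3 := by
    rw [← Nat.card_eq_fintype_card, GaloisField.card 2 3 (by norm_num)]
  obtain ⟨f, hf⟩ := exists_hom (GaloisField 2 3) F hE hF
  let g : ↥(twistedD4 (GaloisField 2 3) 2) →* X := e.symm.toMonoidHom.comp f
  have hg : Function.Injective g := e.symm.injective.comp hf
  exact ⟨g.range, GaloisField 2 3, inferInstance, inferInstance, hE, ⟨(MonoidHom.ofInjective hg).symm⟩⟩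

end Cfsg.Agent.H846.TdFour
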